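import Mathlib
import Cfsg.Agent.Lib.Helper4.TIQ.Defs
import Cfsg.Agent.S0025

/-!
# TIQ (S4151), package [COPA]: coprime action on a Z-group, the fixed points form a Hall subgroup
-/

set_option autoImplicit false

namespace Cfsg.Agent.Lib.Helper52.TIQ

open Cfsg.Agent.Lib.Helper4.TIQ

universe u

/-- Package [COPA] from [CYC]. -/
theorem pkgCopA_of (hCyc : PkgCyc.{u}) : PkgCopA.{u} := by
  intro G _ _ H Q hQ hcop hZ
  by_contra hnc
  obtain ⟨p, hp, hpD, hpI⟩ := Nat.Prime.not_coprime_iff_dvd.mp hnc
  have : Fact p.Prime := ⟨hp⟩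
  obtain ⟨x, hx⟩ := exists_prime_orderOf_dvd_card' p hpD
  have hxH : (x : G) ∈ H := x.2.1
  have hxC : (x : G) ∈ Subgroup.centralizer (Q : Set G) := x.2.2
  have hox : orderOf (x : G) = p := by rw [Subgroup.orderOf_coe]; exact hx
  have hx1 : (x : G) ≠ 1 := by
    intro h1
    rw [h1, orderOf_one] at hox
    exact hp.one_lt.ne hox
  have hUH : Subgroup.zpowers (x : G) ≤ H := (Subgroup.zpowers_le).2 hxH
  have hU : IsPGroup p (Subgroup.zpowers (x : G)) := by
    apply IsPGroup.of_card (n := 1)
    rw [pow_one, Nat.card_zpowers, hox]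
  have hcomm : ∀ q ∈ Q, ∀ g ∈ Subgroup.zpowers (x : G), q * g = g * q := by
    intro q hq g hg
    obtain ⟨k, rfl⟩ := Subgroup.mem_zpowers_iff.mp hg
    have h1 : q * (x : G) = (x : G) * q := (Subgroup.mem_centralizer_iff.mp hxC q hq)
    exact ((Commute.zpow_right (show Commute q (x : G) from h1) k)).eq
  have hUA : Q ≤ Subgroup.normalizer (Subgroup.zpowers (x : G) : Set G) := by
    intro q hq
    rw [Subgroup.mem_normalizer_iff]
    intro g
    constructor
    · intro hg
      have : q * g * q⁻¹ = g := by rw [hcomm q hq g hg, mul_inv_cancel_right]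
      rw [this]; exact hg
    · intro hg
      have h1 := hcomm q⁻¹ (inv_mem hq) _ hg
      have : g = q * g * q⁻¹ := by
        calc g = q⁻¹ * (q * g * q⁻¹) * q := by group
          _ = (q * g * q⁻¹) * q⁻¹ * q := by rw [h1]
          _ = q * g * q⁻¹ := by group
      rw [this]; exact hg
  obtain ⟨P, hUP, hQP⟩ := Cfsg.Agent.S0025.result Q H hQ hcop (Or.inr inferInstance) p
    (Subgroup.zpowers (x : G)) hUH hU hUA
  have hP'p : IsPGroup p ((P : Subgroup H).map H.subtype) := P.isPGroup'.map H.subtype
  have hP'cyc : IsCyclic ((P : Subgroup H).map H.subtype) := by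
    have : IsCyclic (P : Subgroup H) := inferInstance
    exact isCyclic_of_surjective ((H.subtype).subgroupMap (P : Subgroup H))
      ((H.subtype).subgroupMap_surjective (P : Subgroup H))
  have hpH : p ∣ Nat.card H := by
    rw [← hox]
    have := orderOf_dvd_natCard (⟨(x : G), hxH⟩ : H)
    rwa [← Subgroup.orderOf_coe] at this
  have hcopQp : (Nat.card Q).Coprime p := Nat.Coprime.coprime_dvd_right hpH hcop
  have hcent : Q ≤ Subgroup.centralizer (((P : Subgroup H).map H.subtype : Subgroup G) : Set G) :=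
    hCyc G ((P : Subgroup H).map H.subtype) Q p hP'p hP'cyc hQP hcopQp
      ⟨(x : G), hUP (Subgroup.mem_zpowers _), hx1,
        fun a ha => Subgroup.mem_centralizer_iff.mp hxC a ha⟩
  have hP'D : (P : Subgroup H).map H.subtype ≤ H ⊓ Subgroup.centralizer (Q : Set G) := by
    intro y hy
    refine ⟨?_, ?_⟩
    · obtain ⟨z, _, rfl⟩ := hy
      exact z.2
    · show y ∈ Subgroup.centralizer (Q : Set G)
      rw [Subgroup.mem_centralizer_iff]
      intro q hq
      have := Subgroup.mem_centralizer_iff.mp (hcent hq) y hy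
      exact this.symm
  have hdvd : (H ⊓ Subgroup.centralizer (Q : Set G)).relIndex H ∣
      ((P : Subgroup H).map H.subtype).relIndex H :=
    Subgroup.relIndex_dvd_of_le_left H hP'D
  have hP'idx : ((P : Subgroup H).map H.subtype).relIndex H = (P : Subgroup H).index := by
    rw [Subgroup.relIndex]
    congr 1
    exact Subgroup.comap_map_eq_self_of_injective H.subtype_injective _
  rw [hP'idx] at hdvd
  exact P.not_dvd_index (hpI.trans hdvd)

end Cfsg.Agent.Lib.Helper52.TIQ
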